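import Cfsg.Agent.OddOrderCharacters.PF9.CliffGen
import Cfsg.Agent.H681.DegBasic

/-!
# S4766, C2: induction from a subgroup containing the inertia group (helper487)
-/

set_option autoImplicit false

namespace Cfsg.Agent.H487.AN

open Cfsg Subgroup
open Cfsg.Agent.Characters.Core Cfsg.Agent.OddOrderCharacters.IndRes
  Cfsg.Agent.OddOrderCharacters.NormalInduced Cfsg.Agent.OddOrderCharacters.PF9.CliffGen

universe u

/-- **Clifford**: an irreducible character of `H` over a character of `N` whose inertia group is contained in `H`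
induces irreducibly; degrees. -/
theorem mem_degrees_of_stab {K : Type u} [Group K] [Finite K] {N H : Subgroup K} [hN : N.Normal] (hNH : N ≤ H)
    {θ : N → ℂ} (hθ : IsIrrCharacter N θ) (hst : ∀ g, conjFn N θ g = θ → g ∈ H) {ψ : H → ℂ}
    (hψ : IsIrrCharacter H ψ) {d : ℕ} (hd : ψ 1 = d) [Fintype N] (h0 : classInner (resTo hNH ψ) θ ≠ 0) :
    H.index * d ∈ charDegrees K := by
  classical
  have := Fintype.ofFinite K
  set T := inertia N θ with hTdef
  have hTH : T ≤ H := fun g hg => hst g hg
  have hNT : N ≤ T := le_inertia (isIrr_isClassFunction hθ)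
  have := Fintype.ofFinite H
  have := Fintype.ofFinite T
  have := Fintype.ofFinite (N.subgroupOf H)
  have := Fintype.ofFinite (T.subgroupOf H)
  have hN' : (N.subgroupOf H).Normal := inferInstance
  have hθ' : IsIrrCharacter (N.subgroupOf H) (down N H θ) :=
    isIrr_comp (subgroupOfEquivOfLe hNH).toMonoidHom (subgroupOfEquivOfLe hNH).surjective hθ
  have hT' : ∀ g : H, g ∈ T.subgroupOf H ↔ conjFn (N.subgroupOf H) (down N H θ) g = down N H θ := by
    intro g
    rw [mem_subgroupOf, hTdef, mem_inertia, funext_iff, funext_iff]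
    constructor
    · intro h x
      exact h ⟨(x : H), mem_subgroupOf.1 x.2⟩
    · intro h x
      exact h ⟨⟨x, hNH x.2⟩, mem_subgroupOf.2 x.2⟩
  have hNT' : N.subgroupOf H ≤ T.subgroupOf H := fun x hx => hNT hx
  have h1 : classInner (res (N.subgroupOf H) ψ) (down N H θ) ≠ 0 := by
    rw [res_eq_down hNH, classInner_down hNH]
    exact h0
  obtain ⟨η, hη, h2, h3⟩ := exists_ind hθ' hT' hNT' hψ h1
  -- transport to `T`
  let e : T.subgroupOf H ≃* T := subgroupOfEquivOfLe hTH
  have hη' : IsIrrCharacter T (η ∘ e.symm) := isIrr_comp e.symm.toMonoidHom e.symm.surjective hη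
  have h4 : resTo hNT' η = down N H (resTo hNT (η ∘ e.symm)) := by
    funext x
    rfl
  rw [h4, classInner_down hNH] at h2
  have h5 := irr_ind hθ (fun g => Iff.rfl) hNT hη' h2
  obtain ⟨c, -, hc⟩ := isIrr_apply_one hη
  refine H681.DegBasic.mem_charDegrees.2 ⟨_, h5, ?_⟩
  rw [indFun_apply_one]
  have h6 : (η ∘ e.symm) 1 = η 1 := by rw [Function.comp_apply, map_one]
  have h7 : (d : ℂ) = ((T.subgroupOf H).index : ℂ) * η 1 := by
    rw [← hd, h3, indFun_apply_one]
  rw [h6, ← relIndex_mul_index hTH]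
  push_cast
  rw [h7]
  change ((T.subgroupOf H).index : ℂ) * (H.index : ℂ) * η 1 = _
  ring

end Cfsg.Agent.H487.AN
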